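import Cfsg.Prelude.Def_Local
import Cfsg.Agent.Lib.Big.CoreKill

set_option autoImplicit false
open Cfsg

namespace Cfsg.Lib.Cor
open Subgroup Cfsg.Lib Cfsg.Lib.FT Cfsg.Lib.Big

theorem s3109 {G : Type*} [Group G] [Finite G] [IsSimpleGroup G] (hG : ¬ IsMulCommutative G)
    (h2c : ∀ T : Subgroup G, IsPGroup 2 T → T ≠ ⊥ → Cfsg.IsPConstrained 2 ↥(Subgroup.normalizer (T : Set G)))
    (S : Sylow 2 G) (A : Subgroup ↥(S : Subgroup G)) (hAn : A.Normal) (hAab : IsMulCommutative ↥A)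
    (hAC : Subgroup.centralizer (A : Set ↥(S : Subgroup G)) = A) (hA3 : ¬ Cfsg.PRankLE 2 2 ↥A) :
    ∀ t : G, orderOf t = 2 → Cfsg.centralizerPPrimeCore 2 t = ⊥ := by
  intro t ht
  obtain ⟨E, hE, h8, -, hN⟩ := exists_normal_e8_of_sylow S A hAn hAab hA3 S
  exact core_eq_bot_of_e8 (oddCore_eq_bot_of_simple hG) (invConstrained_of_locals h2c)
    (inv8_of_normal_e8 (IsSylowIn.of_sylow_top S) hE h8 hN) ht

end Cfsg.Lib.Cor
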